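import Cfsg.Agent.H334.Rec.Amb
import Cfsg.Agent.H171.ThreePrimes
import Cfsg.Agent.Lib.SubnormalJoin

/-!
# Recognition of `A_n`, `S_n` by spectrum: the structure theorem (helper334, task 2194)

`exists_dat_of` : the structure theorem, with the statement `out_prime` as a hypothesis; `Dat.cand`.
-/

set_option autoImplicit false

open Subgroup

universe u

namespace Cfsg.Agent.H334.Rec

open Cfsg Cfsg.Agent.H395.Coclique Cfsg.Agent.H367.Rec

/-- three primes, the pairwise sums are `> n` -/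
structure Tri (n p q r : ℕ) : Prop where
  hp : p.Prime
  hq : q.Prime
  hr : r.Prime
  pq : p ≠ q
  pr : p ≠ r
  qr : q ≠ r
  spq : n < p + q
  spr : n < p + r
  sqr : n < q + r

section

variable {n : ℕ} {G : Type*} [Group G]

theorem Tri.rot {p q r : ℕ} (h : Tri n p q r) : Tri n q r p :=
  ⟨h.hq, h.hr, h.hp, h.qr, h.pq.symm, h.pr.symm, h.sqr, by have := h.spq; omega, by have := h.spr; omega⟩

theorem Tri.swap {p q r : ℕ} (h : Tri n p q r) : Tri n q p r :=
  ⟨h.hq, h.hp, h.hr, h.pq.symm, h.qr, h.pr, by have := h.spq; omega, h.sqr, h.spr⟩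

theorem card_mul_rel (K M : Subgroup G) (h : K ≤ M) : Nat.card K * K.relIndex M = Nat.card M := by
  have h := Subgroup.relIndex_mul_relIndex (⊥ : Subgroup G) K M bot_le h
  rwa [Subgroup.relIndex_bot_left, Subgroup.relIndex_bot_left] at h

theorem rel_of_card {r : ℕ} (hr : r.Prime) {K M : Subgroup G} (h : K ≤ M) (h1 : r ∣ Nat.card M) (h2 : ¬ r ∣ Nat.card K) :
    r ∣ K.relIndex M := by
  rw [← card_mul_rel K M h] at h1
  exact (hr.dvd_mul.1 h1).resolve_left h2

theorem idx_of_card {r : ℕ} (hr : r.Prime) {M : Subgroup G} (h1 : r ∣ Nat.card G) (h2 : ¬ r ∣ Nat.card M) :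
    r ∣ M.index := by
  rw [← M.card_mul_index] at h1
  exact (hr.dvd_mul.1 h1).resolve_left h2

theorem card_map_mk (K M : Subgroup G) [K.Normal] : Nat.card (M.map (QuotientGroup.mk' K)) = K.relIndex M := by
  have := Subgroup.relIndex_ker M (QuotientGroup.mk' K)
  rw [QuotientGroup.ker_mk'] at this
  exact this.symm

theorem no_series [Finite G] (hG : Amb n G) {p q r : ℕ} (h : Tri n p q r) (K M : Subgroup G) [K.Normal] [M.Normal]
    (hKM : K ≤ M) (h1 : p ∣ Nat.card K) (h2 : q ∣ K.relIndex M) (h3 : r ∣ M.index) : False := by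
  obtain ⟨hp, hq, hr, pq, pr, qr, spq, spr, sqr⟩ := h
  rcases main' K M hKM p q r hp hq hr pq pr qr h1 h2 h3 with h | h | h
  · have := hG.adj p q hp hq pq h; omega
  · have := hG.adj p r hp hr pr h; omega
  · have := hG.adj q r hq hr qr h; omega

/-- a moved simple group gives adjacent primes -/
theorem normal_of_simple [Finite G] (hG : Amb n G) {M : Subgroup G} [M.Normal] {T : Subgroup G} (hT : IsSimpleGroup ↥T)
    (hTM : T ≤ M) (hMT : M ≤ normalizer (T : Set G)) {r s : ℕ} (hr : r.Prime) (hs : s.Prime) (hrs : r ≠ s)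
    (hn : n < r + s) (h1 : r ∣ Nat.card T) (h2 : s ∣ Nat.card T) : T.Normal := by
  rw [← normalizer_eq_top_iff, eq_top_iff]
  intro g _
  by_contra hg
  have h3 := commute_conj hT hTM hMT hg
  have h4 := hG.commP hr hs hrs (A := T) (B := T.map (MulAut.conj g).toMonoidHom) h1
    (by rw [card_map_of_injective (MulAut.conj g).injective]; exact h2)
    (by rintro a ha _ ⟨b, hb, rfl⟩; exact h3 a ha b hb)
  omega

theorem nn [Finite G] (hG : Amb n G) {p q : ℕ} (hp : p.Prime) (hq : q.Prime) (hpq : p ≠ q) (A B : Subgroup G) [hA : A.Normal]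
    [hB : B.Normal] (h1 : q ∣ Nat.card A) (h2 : ¬ p ∣ Nat.card A) (h3 : p ∣ Nat.card B) (h4 : ¬ q ∣ Nat.card B) :
    p + q ≤ n := by
  have := Fact.mk hp
  have := Fact.mk hq
  obtain ⟨x, hxA, hx⟩ := exists_ord hq h1
  obtain ⟨y, hyB, hy⟩ := exists_ord hp h3
  let f := QuotientGroup.mk' (A ⊓ B)
  have hf : ∀ z, f z = 1 ↔ z ∈ A ⊓ B := fun z => QuotientGroup.eq_one_iff z
  have hfx : orderOf (f x) = q := by
    apply orderOf_eq_prime
    · rw [← map_pow, ← hx, pow_orderOf_eq_one, map_one]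
    · intro h
      apply h4
      rw [← hx, ← orderOf_mk x ((hf x).1 h).2]
      exact orderOf_dvd_natCard _
  have hfy : orderOf (f y) = p := by
    apply orderOf_eq_prime
    · rw [← map_pow, ← hy, pow_orderOf_eq_one, map_one]
    · intro h
      apply h2
      rw [← hy, ← orderOf_mk y ((hf y).1 h).1]
      exact orderOf_dvd_natCard _
  have hc : f y * f x = f x * f y := by
    have h5 : y * x * y⁻¹ * x⁻¹ ∈ A ⊓ B := by
      refine ⟨A.mul_mem (hA.conj_mem x hxA y) (A.inv_mem hxA), ?_⟩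
      have h6 : y * x * y⁻¹ * x⁻¹ = y * (x * y⁻¹ * x⁻¹) := by group
      rw [h6]
      exact B.mul_mem hyB (hB.conj_mem _ (B.inv_mem hyB) x)
    have h6 := (hf _).2 h5
    rw [map_mul, map_mul, map_mul, map_inv, map_inv] at h6
    calc f y * f x = (f y * f x * (f y)⁻¹ * (f x)⁻¹) * (f x * f y) := by group
      _ = f x * f y := by rw [h6, one_mul]
  exact (hG.quot (A ⊓ B)).comm hp hq hpq hfy hfx hc

/-- the types of a bad prime -/
theorem typ [Finite G] (hG : Amb n G) {p q r : ℕ} (h : Tri n p q r) (hqG : q ∣ Nat.card G) (hrG : r ∣ Nat.card G)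
    {N M : Subgroup G} [N.Normal] [M.Normal] (hNM : N ≤ M) (h1 : p ∣ N.relIndex M)
    (h2 : ∀ s : ℕ, s.Prime → s ≠ p → ¬ s ∣ N.relIndex M) :
    (q ∣ Nat.card N ∧ r ∣ Nat.card N) ∨ (¬ q ∣ Nat.card M ∧ ¬ r ∣ Nat.card M) := by
  have key : ∀ s : ℕ, s.Prime → s ≠ p → ¬ s ∣ Nat.card N → ¬ s ∣ Nat.card M := fun s hs hsp h3 h4 =>
    h2 s hs hsp (rel_of_card hs hNM h4 h3)
  by_cases hq : q ∣ Nat.card N
  · by_cases hr : r ∣ Nat.card N
    · exact Or.inl ⟨hq, hr⟩
    · have h3 := key r h.hr h.pr.symm hr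
      exact (no_series hG h.swap N M hNM hq h1 (idx_of_card h.hr hrG h3)).elim
  · have h3 := key q h.hq h.pq.symm hq
    by_cases hr : r ∣ Nat.card N
    · exact (no_series hG h.rot.rot N M hNM hr h1 (idx_of_card h.hq hqG h3)).elim
    · exact Or.inr ⟨h3, key r h.hr h.pr.symm hr⟩

/-- a bad prime -/
def Bad (G : Type*) [Group G] (p : ℕ) : Prop := ∃ M : Subgroup G, M.Normal ∧ pPrimeCore p G ≤ M ∧
  p ∣ (pPrimeCore p G).relIndex M ∧ ∀ s : ℕ, s.Prime → s ≠ p → ¬ s ∣ (pPrimeCore p G).relIndex M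

theorem not_dvd_core [Finite G] {p : ℕ} (hp : p.Prime) : ¬ p ∣ Nat.card (pPrimeCore p G) := fun h =>
  (Nat.Prime.coprime_iff_not_dvd hp).1 (Lib.Cores.pPrimeCore_coprime (G := G) p).symm h

theorem le_core {q : ℕ} (hq : q.Prime) {M : Subgroup G} (hM : M.Normal) (h : ¬ q ∣ Nat.card M) :
    M ≤ pPrimeCore q G :=
  Lib.Cores.le_pPrimeCore hM ((Nat.Prime.coprime_iff_not_dvd hq).2 h).symm

/-- two of three bad primes: the first type cannot occur for two primes -/
theorem not_three_bad [Finite G] (hG : Amb n G) {p q r : ℕ} (h : Tri n p q r) (hpG : p ∣ Nat.card G) (hqG : q ∣ Nat.card G)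
    (hrG : r ∣ Nat.card G) (bp : Bad G p) (bq : Bad G q) (br : Bad G r) : False := by
  have := Lib.Cores.pPrimeCore_normal (G := G) p
  have := Lib.Cores.pPrimeCore_normal (G := G) q
  have := Lib.Cores.pPrimeCore_normal (G := G) r
  have nnc : ∀ a b : ℕ, a.Prime → b.Prime → a ≠ b → n < a + b → (pPrimeCore a G).Normal → (pPrimeCore b G).Normal →
      b ∣ Nat.card (pPrimeCore a G) → a ∣ Nat.card (pPrimeCore b G) → False := by
    intro a b ha hb hab hn na nb h1 h2
    have h3 := nn hG ha hb hab (pPrimeCore a G) (pPrimeCore b G) h1 (not_dvd_core ha) h2 (not_dvd_core hb)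
    omega
  -- if `a` has the second type
  have sec : ∀ a b : ℕ, b.Prime → ∀ M : Subgroup G, M.Normal → a ∣ (pPrimeCore a G).relIndex M → ¬ b ∣ Nat.card M →
      a ∣ Nat.card (pPrimeCore b G) := by
    intro a b hb M hM h1 h2
    have h3 := le_core hb hM h2
    exact (h1.trans (relIndex_dvd_card _ _)).trans (card_dvd_of_le h3)
  obtain ⟨M₁, m1, m2, m3, m4⟩ := bp
  obtain ⟨M₂, l1, l2, l3, l4⟩ := bq
  obtain ⟨M₃, k1, k2, k3, k4⟩ := br
  have tp := typ hG h hqG hrG m2 m3 m4
  have tq := typ hG h.swap hpG hrG l2 l3 l4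
  have tr := typ hG h.rot.rot hpG hqG k2 k3 k4
  obtain ⟨hp, hq, hr, pq, pr, qr, spq, spr, sqr⟩ := h
  rcases tp with tp | tp
  · rcases tq with tq | tq
    · exact nnc p q hp hq pq spq inferInstance inferInstance tp.1 tq.1
    · have h1 := sec q r hr M₂ l1 l3 tq.2
      rcases tr with tr | tr
      · exact nnc p r hp hr pr spr inferInstance inferInstance tp.2 tr.1
      · exact tr.2 (h1.trans (card_dvd_of_le k2))
  · have h1 := sec p q hq M₁ m1 m3 tp.1
    have h2 := sec p r hr M₁ m1 m3 tp.2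
    rcases tq with tq | tq
    · rcases tr with tr | tr
      · exact nnc q r hq hr qr sqr inferInstance inferInstance tq.2 tr.2
      · exact tr.1 (h2.trans (card_dvd_of_le k2))
    · exact tq.1 (h1.trans (card_dvd_of_le l2))

/-- a prime which is not bad -/
theorem good_of_not_bad [Finite G] {w : ℕ} (hw : w.Prime) (hwG : w ∣ Nat.card G) (hb : ¬ Bad G w) :
    ∃ (N : Subgroup G) (_ : N.Normal) (M T : Subgroup (G ⧸ N)), ¬ w ∣ Nat.card N ∧
      (∀ D : Subgroup (G ⧸ N), D.Normal → D ≠ ⊥ → w ∣ Nat.card D) ∧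
      M.Normal ∧ IsSimpleGroup ↥T ∧ ¬ IsMulCommutative ↥T ∧ T ≤ M ∧ M ≤ normalizer (T : Set (G ⧸ N)) ∧
      w ∣ Nat.card T ∧ ∀ r : ℕ, r.Prime → r ∣ Nat.card M → r ∣ Nat.card T := by
  have hN := Lib.Cores.pPrimeCore_normal (G := G) w
  have h1 : ∀ D : Subgroup (G ⧸ pPrimeCore w G), D.Normal → D ≠ ⊥ → w ∣ Nat.card D := by
    intro D hD hD1
    by_contra h
    apply hD1
    rw [eq_bot_iff, ← Lib.Cores.pPrimeCore_quotient_pPrimeCore (G := G) w]
    exact le_core hw hD h
  have hnt : (⊤ : Subgroup (G ⧸ pPrimeCore w G)) ≠ ⊥ := by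
    intro h
    have h2 : Nat.card (G ⧸ pPrimeCore w G) = 1 := by
      rw [← Nat.card_congr (topEquiv (G := G ⧸ pPrimeCore w G)).toEquiv, h, card_bot]
    have h3 := idx_of_card hw hwG (not_dvd_core (G := G) hw)
    rw [Subgroup.index, h2] at h3
    exact hw.one_lt.ne' (Nat.dvd_one.1 h3)
  obtain ⟨M, hM, -, hM1, hmin⟩ := Lib.SubnormalJoin.exists_minimal_normal_le (⊤ : Subgroup (G ⧸ pPrimeCore w G))
    inferInstance hnt
  obtain ⟨T, hTM, hT, hMT, hTd⟩ := exists_simple M hM1 hmin
  have hwM := h1 M hM hM1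
  refine ⟨pPrimeCore w G, hN, M, T, not_dvd_core hw, h1, hM, hT, ?_, hTM, hMT, hTd w hw hwM, hTd⟩
  -- `M` is not a `w`-group
  obtain ⟨r, hr, hrw, hrM⟩ : ∃ r : ℕ, r.Prime ∧ r ≠ w ∧ r ∣ Nat.card M := by
    by_contra hno
    push Not at hno
    apply hb
    have h2 : (M.comap (QuotientGroup.mk' (pPrimeCore w G))).map (QuotientGroup.mk' (pPrimeCore w G)) = M :=
      map_comap_eq_self_of_surjective (QuotientGroup.mk'_surjective _) M
    have h3 : (pPrimeCore w G).relIndex (M.comap (QuotientGroup.mk' (pPrimeCore w G))) = Nat.card M := by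
      rw [← card_map_mk, h2]
    refine ⟨M.comap (QuotientGroup.mk' (pPrimeCore w G)), inferInstance, ?_, ?_, ?_⟩
    · exact QuotientGroup.le_comap_mk' _ M
    · rw [h3]; exact hwM
    · intro s hs hsw
      rw [h3]
      exact hno s hs hsw
  exact not_comm hT hw hr hrw.symm (hTd w hw hwM) (hTd r hr hrM)

end

section

variable {n : ℕ} {G : Type u} [Group G] [Finite G]

/-- no two primes divide the order of a normal subgroup if a big prime is outside -/
theorem lemB (hout : OutPrime.{u}) (hG : Amb n G) (N : Subgroup G) [hN : N.Normal] {u' r s : ℕ} (h : Tri n u' r s)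
    (hu : Big n u') (huG : u' ∣ Nat.card G) (huN : ¬ u' ∣ Nat.card N) (hrN : r ∣ Nat.card N) (hsN : s ∣ Nat.card N) :
    False := by
  obtain ⟨hup, hr, hs, pur, pus, prs, sur, sus, srs⟩ := id h
  have hfin : {K : Subgroup G | K.Normal ∧ K ≤ N ∧ ¬ r ∣ Nat.card K ∧ ¬ s ∣ Nat.card K}.Finite := Set.toFinite _
  obtain ⟨K, ⟨hK, hKN, hKr, hKs⟩, hKmax⟩ := hfin.exists_maximal
    ⟨⊥, inferInstance, bot_le, by rw [card_bot]; exact fun h => hr.one_lt.ne' (Nat.dvd_one.1 h),
      by rw [card_bot]; exact fun h => hs.one_lt.ne' (Nat.dvd_one.1 h)⟩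
  let f := QuotientGroup.mk' K
  have hf : Function.Surjective f := QuotientGroup.mk'_surjective K
  have hNn : (N.map f).Normal := Subgroup.Normal.map inferInstance f hf
  have hN1 : N.map f ≠ ⊥ := by
    intro h1
    have h2 : N ≤ K := by
      intro x hx
      have h3 : f x ∈ N.map f := ⟨x, hx, rfl⟩
      rw [h1, mem_bot] at h3
      exact (QuotientGroup.eq_one_iff x).1 h3
    exact hKr (hrN.trans (card_dvd_of_le h2))
  obtain ⟨L', hL', hL'N, hL'1, hmin⟩ := Lib.SubnormalJoin.exists_minimal_normal_le (N.map f) hNn hN1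
  set L := L'.comap f with hL
  have hLn : L.Normal := hL'.comap f
  have hKL : K ≤ L := QuotientGroup.le_comap_mk' _ L'
  have hLmap : L.map f = L' := map_comap_eq_self_of_surjective hf L'
  have hLN : L ≤ N := by
    intro x hx
    obtain ⟨y, hy, hyx⟩ := hL'N (show f x ∈ L' from hx)
    have h1 : y⁻¹ * x ∈ K := by
      rw [← QuotientGroup.eq_one_iff]
      show f (y⁻¹ * x) = 1
      rw [map_mul, map_inv, hyx, inv_mul_cancel]
    have h2 := N.mul_mem hy (hKN h1)
    rwa [mul_inv_cancel_left] at h2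
  have hcard : Nat.card L' = K.relIndex L := by rw [← hLmap, card_map_mk]
  have hnotle : ¬ L ≤ K := by
    intro h1
    apply hL'1
    rw [eq_bot_iff]
    intro x hx
    obtain ⟨x, rfl⟩ := hf x
    rw [mem_bot]
    exact (QuotientGroup.eq_one_iff x).2 (h1 hx)
  have hor : r ∣ Nat.card L ∨ s ∣ Nat.card L := by
    by_contra hno
    rw [not_or] at hno
    exact hnotle (hKmax ⟨hLn, hLN, hno.1, hno.2⟩ hKL)
  have huidx := idx_of_card hup huG huN
  have hboth : r ∣ Nat.card L ∧ s ∣ Nat.card L := by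
    rcases hor with h1 | h1
    · refine ⟨h1, ?_⟩
      by_contra h2
      exact no_series hG h.rot L N hLN h1 (rel_of_card hs hLN hsN h2) huidx
    · refine ⟨?_, h1⟩
      by_contra h2
      exact no_series hG h.rot.swap L N hLN h1 (rel_of_card hr hLN hrN h2) huidx
  have hrL : r ∣ Nat.card L' := by rw [hcard]; exact rel_of_card hr hKL hboth.1 hKr
  have hsL : s ∣ Nat.card L' := by rw [hcard]; exact rel_of_card hs hKL hboth.2 hKs
  obtain ⟨T, hTM, hT, hMT, hTd⟩ := exists_simple L' hL'1 hmin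
  have hQ := hG.quot K
  have hna := not_comm hT hr hs prs (hTd r hr hrL) (hTd s hs hsL)
  have hTn : T.Normal := normal_of_simple hQ hT hTM hMT hr hs prs srs (hTd r hr hrL) (hTd s hs hsL)
  have huK : ¬ u' ∣ Nat.card K := fun h1 => huN (h1.trans (card_dvd_of_le hKN))
  have huT : ¬ u' ∣ Nat.card T := by
    intro h1
    have h2 := h1.trans (card_dvd_of_le hTM)
    rw [hcard] at h2
    exact huN ((h2.trans (relIndex_dvd_card _ _)).trans (card_dvd_of_le hLN))
  have := Fact.mk hup
  obtain ⟨y, hy⟩ := exists_prime_orderOf_dvd_card' (G := G ⧸ K) u' (idx_of_card hup huG huK)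
  have hyT : y ∈ normalizer (T : Set (G ⧸ K)) := by rw [normalizer_eq_top]; exact mem_top y
  have hyc := cent_of_norm hout hQ hT hna hu huT hy hyT
  obtain ⟨t, ht, hto⟩ := exists_ord hr (hTd r hr hrL)
  have := hQ.comm hup hr pur hy hto ((mem_centralizer_iff.1 hyc) t ht).symm
  omega

/-- the simple section -/
theorem simple_section (hout : OutPrime.{u}) (hG : Amb n G) {w q : ℕ} (hw : w.Prime) (hw2 : w ≠ 2) (hq : Big n q)
    (hwq : w ≠ q) (hn : n < w + q) (hqG : q ∣ Nat.card G) (N : Subgroup G) [hN : N.Normal]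
    (hD : ∀ D : Subgroup (G ⧸ N), D.Normal → D ≠ ⊥ → w ∣ Nat.card D) {M T : Subgroup (G ⧸ N)} (hM : M.Normal)
    (hT : IsSimpleGroup ↥T) (hna : ¬ IsMulCommutative ↥T) (hTM : T ≤ M) (hMT : M ≤ normalizer (T : Set (G ⧸ N)))
    (hwT : w ∣ Nat.card T) (hTd : ∀ r : ℕ, r.Prime → r ∣ Nat.card M → r ∣ Nat.card T) :
    T.Normal ∧ centralizer (T : Set (G ⧸ N)) = ⊥ := by
  have hQ := hG.quot N
  have := Fact.mk hq.prime
  obtain ⟨t, ht, hto⟩ := exists_ord hw hwT
  -- an element of order `q` normalising `T`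
  have key : (∃ (A : Subgroup (G ⧸ N)), w ∣ Nat.card A ∧ Disjoint T A ∧ (∀ a ∈ T, ∀ b ∈ A, a * b = b * a)) →
      q ∣ Nat.card (G ⧸ N) := by
    rintro ⟨A, hA, hTA, hc⟩
    obtain ⟨b, hb, hbo⟩ := exists_ord hw hA
    have h1 : b ∉ zpowers t := by
      intro h1
      have h2 : b ∈ T := (zpowers_le.2 ht) h1
      have h3 : b = 1 := by
        have := hTA.le_bot ⟨h2, hb⟩
        simpa using this
      rw [h3, orderOf_one] at hbo
      exact hw.one_lt.ne hbo
    exact idx_of_card hq.prime hqG (frat hG N hw hw2 hq.prime hwq hn hto hbo (hc t ht b hb) h1)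
  have notT : ∀ A : Subgroup (G ⧸ N), w ∣ Nat.card A → (∀ a ∈ T, ∀ b ∈ A, a * b = b * a) → ¬ q ∣ Nat.card T := by
    intro A hA hc h1
    have := hQ.commP hq.prime hw hwq.symm h1 hA hc
    omega
  -- `T` is normal
  have hTn : T.Normal := by
    rw [← normalizer_eq_top_iff, eq_top_iff]
    intro g _
    by_contra hg
    have h3 := commute_conj hT hTM hMT hg
    set S := T.map (MulAut.conj g).toMonoidHom with hS
    have hcS : ∀ a ∈ T, ∀ b ∈ S, a * b = b * a := by rintro a ha _ ⟨b, hb, rfl⟩; exact h3 a ha b hb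
    have hwS : w ∣ Nat.card S := by rw [hS, card_map_of_injective (MulAut.conj g).injective]; exact hwT
    have hdis : Disjoint T S := by
      rw [disjoint_iff, eq_bot_iff]
      intro x hx
      exact eq_one_of_cent hT hna hx.1 fun t ht => (hcS t ht x hx.2).symm
    have hqX := key ⟨S, hwS, hdis, hcS⟩
    have hqT := notT S hwS hcS
    have hqM : ¬ q ∣ Nat.card M := fun h => hqT (hTd q hq.prime h)
    obtain ⟨y, hy⟩ := exists_prime_orderOf_dvd_card' (G := G ⧸ N) q hqX
    have hyT := mem_normalizer_of hQ hT hna hTM hMT hw hq.prime hwq hn hwT hqM hy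
    have hyc := cent_of_norm hout hQ hT hna hq hqT hy hyT
    have := hQ.comm hw hq.prime hwq hto hy ((mem_centralizer_iff.1 hyc) t ht)
    omega
  refine ⟨hTn, ?_⟩
  by_contra hC
  have hCn : (centralizer (T : Set (G ⧸ N))).Normal := inferInstance
  have hwC := hD _ hCn hC
  have hcC : ∀ a ∈ T, ∀ b ∈ centralizer (T : Set (G ⧸ N)), a * b = b * a := fun a ha b hb => mem_centralizer_iff.1 hb a ha
  have hdis : Disjoint T (centralizer (T : Set (G ⧸ N))) := by
    rw [disjoint_iff, eq_bot_iff]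
    intro x hx
    exact eq_one_of_cent hT hna hx.1 fun t ht => (hcC t ht x hx.2).symm
  have hqX := key ⟨_, hwC, hdis, hcC⟩
  have hqT := notT _ hwC hcC
  obtain ⟨y, hy⟩ := exists_prime_orderOf_dvd_card' (G := G ⧸ N) q hqX
  have hyT : y ∈ normalizer (T : Set (G ⧸ N)) := by rw [normalizer_eq_top]; exact mem_top y
  have hyc := cent_of_norm hout hQ hT hna hq hqT hy hyT
  have := hQ.comm hw hq.prime hwq hto hy ((mem_centralizer_iff.1 hyc) t ht)
  omega

end

/-! ### Element orders -/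

section

variable {n b : ℕ} {G : Type*} [Group G] [Finite G]

theorem sg_le_of_dvd {a c : ℕ} (hc : c ≠ 0) (h : a ∣ c) : sg a ≤ sg c := by
  have h1 := Nat.primeFactors_mono h hc
  have ha : a ≠ 0 := ne_zero_of_dvd_ne_zero hc h
  calc sg a ≤ ∑ p ∈ a.primeFactors, p ^ c.factorization p := by
        apply Finset.sum_le_sum
        intro p hp
        exact Nat.pow_le_pow_right (Nat.prime_of_mem_primeFactors hp).pos
          ((Nat.factorization_le_iff_dvd ha hc).2 h p)
    _ ≤ sg c := Finset.sum_le_sum_of_subset h1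

theorem sg_prime {p : ℕ} (hp : p.Prime) : sg p = p := by
  unfold sg
  rw [hp.primeFactors, Finset.sum_singleton, hp.factorization_self, pow_one]

theorem sg_prime_mul {p q : ℕ} (hp : p.Prime) (hq : q.Prime) (hpq : p ≠ q) : sg (p * q) = p + q := by
  unfold sg
  rw [Nat.primeFactors_mul hp.ne_zero hq.ne_zero, hp.primeFactors, hq.primeFactors,
    Nat.factorization_mul hp.ne_zero hq.ne_zero]
  rw [Finset.sum_union (by simpa using hpq), Finset.sum_singleton, Finset.sum_singleton]
  simp [hp.factorization, hq.factorization, hpq, hpq.symm]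

theorem amb_of_spec (h : Spec b n G) : Amb n G where
  pr q hq hd := by
    have := Fact.mk hq
    obtain ⟨x, hx⟩ := exists_prime_orderOf_dvd_card' (G := G) q hd
    have h1 := (h q).1 ⟨x, hx⟩
    have h2 := h1.2.1
    rwa [sg_prime hq] at h2
  adj p q hp hq hpq hx := by
    have h1 := (h (p * q)).1 hx
    have h2 := h1.2.1
    rwa [sg_prime_mul hp hq hpq] at h2

omit [Finite G] in
theorem dvd_card_of_le (hb : b ≤ 2) (hn : 13 ≤ n) (h : Spec b n G) {q : ℕ} (hq : q.Prime) (hqn : q ≤ n) :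
    q ∣ Nat.card G := by
  obtain ⟨x, hx⟩ := (h q).2 ⟨hq.ne_zero, by rw [sg_prime hq]; exact hqn, fun he => by
    have : q = 2 := (hq.even_iff).1 he
    subst this
    rw [sg_prime hq]; omega⟩
  rw [← hx]
  exact orderOf_dvd_natCard x

end

/-! ### The base primes -/

/-- base primes -/
structure Bas (n w : ℕ) : Prop where
  prime : w.Prime
  le : w ≤ n
  big : Big n w
  out : ∀ v : ℕ, v.Prime → n < 2 * v → v ≠ w → n < w + v

theorem bas_of_half {n w : ℕ} (hn : 13 ≤ n) (hw : w.Prime) (h1 : w ≤ n) (h2 : n < 2 * w) : Bas n w :=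
  ⟨hw, h1, ⟨hw, by omega, fun r _ hr => by omega⟩, fun v _ hv _ => by omega⟩

theorem bas_seven {n : ℕ} (hn : 13 ≤ n) (hn2 : n ≤ 16) : Bas n 7 := by
  refine ⟨by norm_num, by omega, ⟨by norm_num, by norm_num, ?_⟩, ?_⟩
  · intro r hr h
    by_contra h1
    have h2 : r = 15 ∨ r = 16 := by omega
    rcases h2 with rfl | rfl <;> revert hr <;> norm_num
  · intro v hv h1 h2
    by_contra h3
    have h4 : v = 8 ∨ v = 9 := by omega
    rcases h4 with rfl | rfl <;> revert hv <;> norm_num

theorem exists_base {n : ℕ} (hn : 13 ≤ n) : ∃ p q r : ℕ, Tri n p q r ∧ Bas n p ∧ Bas n q ∧ Bas n r := by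
  by_cases h17 : 17 ≤ n
  · obtain ⟨p, q, r, hp, hq, hr, h1, h2, h3, h4⟩ := H171.ThreePrimes.exists_three_primes' n h17
    exact ⟨p, q, r, ⟨hp, hq, hr, by omega, by omega, by omega, by omega, by omega, by omega⟩,
      bas_of_half hn hp (by omega) h1, bas_of_half hn hq (by omega) (by omega), bas_of_half hn hr (by omega) (by omega)⟩
  · refine ⟨7, 11, 13, ⟨by norm_num, by norm_num, by norm_num, by norm_num, by norm_num, by norm_num, by omega, by omega,
      by omega⟩, bas_seven hn (by omega), bas_of_half hn (by norm_num) (by omega) (by omega),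
      bas_of_half hn (by norm_num) (by omega) (by omega)⟩

/-! ### The structure theorem -/

section

variable {n b : ℕ} {G : Type u} [Group G] [Finite G]

theorem index_prime (hout : OutPrime.{u}) (hG : Amb n G) (hn : 13 ≤ n) {N : Subgroup G} [N.Normal] {S : Subgroup (G ⧸ N)}
    (hSn : S.Normal) (hS : IsSimpleGroup ↥S) (hna : ¬ IsMulCommutative ↥S) (hc : centralizer (S : Set (G ⧸ N)) = ⊥)
    {v : ℕ} (hv : v.Prime) (hd : v ∣ S.index) : 2 * v + 1 ≤ n := by
  by_cases h5 : 5 ≤ v
  · obtain ⟨r, hr, hrS, h1⟩ := hout (G ⧸ N) S hS hna hc v hv h5 hd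
    have h2 := (hG.quot N).pr r hr (hrS.trans (card_subgroup_dvd_card S))
    omega
  · omega

theorem exists_dat_of (hout : OutPrime.{u}) (hb : b ≤ 2) (hn : 13 ≤ n) (h : Spec b n G) :
    ∃ (N : Subgroup G) (_ : N.Normal) (S : Subgroup (G ⧸ N)), Dat n N S := by
  have hG := amb_of_spec h
  have hfull : ∀ q : ℕ, q.Prime → q ≤ n → q ∣ Nat.card G := fun q hq hqn => dvd_card_of_le hb hn h hq hqn
  -- the good prime
  obtain ⟨w, q, hw, hq, hwq, hs, hgood⟩ : ∃ w q : ℕ, Bas n w ∧ Bas n q ∧ w ≠ q ∧ n < w + q ∧ ¬ Bad G w := by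
    obtain ⟨p, q, r, h1, hp, hq, hr⟩ := exists_base hn
    by_contra hno
    push Not at hno
    have bp := hno p q hp hq h1.pq h1.spq
    have bq := hno q r hq hr h1.qr h1.sqr
    have br := hno r p hr hp h1.pr.symm (by have := h1.spr; omega)
    exact not_three_bad hG h1 (hfull p hp.prime hp.le) (hfull q hq.prime hq.le) (hfull r hr.prime hr.le) bp bq br
  obtain ⟨N, hN, M, T, hwN, hD, hM, hT, hna, hTM, hMT, hwT, hTd⟩ := good_of_not_bad hw.prime (hfull w hw.prime hw.le) hgood
  obtain ⟨hTn, hcent⟩ := simple_section hout hG hw.prime (by have := hw.big.five; omega) hq.big hwq hs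
    (hfull q hq.prime hq.le) N hD hM hT hna hTM hMT hwT hTd
  refine ⟨N, hN, T, hTn, hT, hna, hcent, ?_⟩
  have hidx : ∀ v : ℕ, v.Prime → v ∣ T.index → 2 * v + 1 ≤ n := fun v hv hd =>
    index_prime hout hG hn hTn hT hna hcent hv hd
  -- no two primes `> n / 2` divide `|N|`
  have hfour : ∀ r s : ℕ, r.Prime → s.Prime → r ≠ s → n < 2 * r → n < 2 * s → r ∣ Nat.card N → s ∣ Nat.card N → False := by
    intro r s hr hs' hrs h1 h2 h3 h4
    have hrw : r ≠ w := fun h => hwN (h ▸ h3)
    have hsw : s ≠ w := fun h => hwN (h ▸ h4)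
    exact lemB hout hG N ⟨hw.prime, hr, hs', hrw.symm, hsw.symm, hrs, hw.out r hr h1 hrw, hw.out s hs' h2 hsw, by omega⟩
      hw.big (hfull w hw.prime hw.le) hwN h3 h4
  -- the series `N ≤ M₀ ≤ G`
  set M₀ := T.comap (QuotientGroup.mk' N) with hM₀
  have hM₀n : M₀.Normal := hTn.comap _
  have hNM₀ : N ≤ M₀ := QuotientGroup.le_comap_mk' _ T
  have hrel : N.relIndex M₀ = Nat.card T := by
    rw [← card_map_mk, hM₀, map_comap_eq_self_of_surjective (QuotientGroup.mk'_surjective _) T]
  have hind : M₀.index = T.index := index_comap_of_surjective _ (QuotientGroup.mk'_surjective _)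
  have hcardG : Nat.card G = Nat.card N * (Nat.card T * T.index) := by
    rw [T.card_mul_index, ← N.card_mul_index]
    rfl
  -- a special case
  have key : ∀ C : Finset ℕ, Coc n C → 3 ≤ C.card → ∀ r ∈ C, ∀ s ∈ C, r ≠ s → r ∣ Nat.card N →
      s ∣ Nat.card N * T.index → False := by
    intro C hC hC3 r hrC s hsC hrs hrN hsd
    have hr := hC.prime r hrC
    have hs' := hC.prime s hsC
    have hsum := hC.sum r hrC s hsC hrs
    obtain ⟨v, hvC, hvr, hvs⟩ : ∃ v ∈ C, v ≠ r ∧ v ≠ s := by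
      by_contra hno
      push Not at hno
      have h1 : C ⊆ {r, s} := by
        intro v hv
        rw [Finset.mem_insert, Finset.mem_singleton]
        by_cases h2 : v = r
        · exact Or.inl h2
        · exact Or.inr (hno v hv h2)
      have h2 := Finset.card_le_card h1
      have h3 := Finset.card_le_two (a := r) (b := s)
      omega
    have hv := hC.prime v hvC
    have hvn := hC.le v hvC
    have hsumv := hC.sum v hvC r hrC hvr
    have hsumv' := hC.sum v hvC s hsC hvs
    have hvG := hfull v hv hvn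
    by_cases hsN : s ∣ Nat.card N
    · -- both divide `|N|`
      by_cases h1 : n < 2 * r
      · by_cases h2 : n < 2 * s
        · exact hfour r s hr hs' hrs h1 h2 hrN hsN
        · by_cases h3 : v ∣ Nat.card N
          · exact hfour r v hr hv hvr.symm h1 (by omega) hrN h3
          · exact lemB hout hG N ⟨hv, hr, hs', hvr, hvs, hrs, hsumv, hsumv', hsum⟩
              ⟨hv, by omega, fun x _ hx => by omega⟩ hvG h3 hrN hsN
      · by_cases h3 : v ∣ Nat.card N
        · exact hfour s v hs' hv hvs.symm (by omega) (by omega) hsN h3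
        · exact lemB hout hG N ⟨hv, hr, hs', hvr, hvs, hrs, hsumv, hsumv', hsum⟩
            ⟨hv, by omega, fun x _ hx => by omega⟩ hvG h3 hrN hsN
    · have hsi := (hs'.dvd_mul.1 hsd).resolve_left hsN
      have hs2 := hidx s hs' hsi
      by_cases h3 : v ∣ Nat.card N
      · exact hfour r v hr hv hvr.symm (by omega) (by omega) hrN h3
      · have h4 : v ∣ Nat.card T := by
          rw [hcardG] at hvG
          rcases hv.dvd_mul.1 hvG with h4 | h4
          · exact absurd h4 h3
          · rcases hv.dvd_mul.1 h4 with h5 | h5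
            · exact h5
            · have := hidx v hv h5
              omega
        exact no_series hG (p := r) (q := v) (r := s) ⟨hr, hv, hs', hvr.symm, hrs, hvs, by omega, hsum, hsumv'⟩ N M₀ hNM₀ hrN
          (by rw [hrel]; exact h4) (by rw [hind]; exact hsi)
  intro C hC hC3 r hrC s hsC hrd hsd
  by_contra hrs
  have hr := hC.prime r hrC
  have hs' := hC.prime s hsC
  rcases hr.dvd_mul.1 hrd with h1 | h1
  · exact key C hC hC3 r hrC s hsC hrs h1 hsd
  · rcases hs'.dvd_mul.1 hsd with h2 | h2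
    · exact key C hC hC3 s hsC r hrC (Ne.symm hrs) h2 hrd
    · have := hidx r hr h1
      have := hidx s hs' h2
      have := hC.sum r hrC s hsC hrs
      omega

end

theorem ne_two_of_coc {n : ℕ} {C : Finset ℕ} (hC : Coc n C) (hC3 : 3 ≤ C.card) {v : ℕ} (hv : v ∈ C) : v ≠ 2 := by
  rintro rfl
  obtain ⟨p, hp, hp2⟩ : ∃ p ∈ C, p ≠ 2 := by
    by_contra hno
    push Not at hno
    have h1 : C ⊆ {2} := fun x hx => by rw [Finset.mem_singleton]; exact hno x hx
    have h2 := Finset.card_le_card h1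
    rw [Finset.card_singleton] at h2
    omega
  obtain ⟨q, hq, hq2, hqp⟩ : ∃ q ∈ C, q ≠ 2 ∧ q ≠ p := by
    by_contra hno
    push Not at hno
    have h1 : C ⊆ {2, p} := fun x hx => by
      rw [Finset.mem_insert, Finset.mem_singleton]
      by_cases h : x = 2
      · exact Or.inl h
      · exact Or.inr (hno x hx h)
    have h2 := Finset.card_le_card h1
    have h3 := Finset.card_le_two (a := 2) (b := p)
    omega
  have h1 := hC.sum 2 hv p hp hp2.symm
  have h2 := hC.sum 2 hv q hq hq2.symm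
  have h3 := hC.le p hp
  have h4 := hC.le q hq
  have h5 := ((hC.prime p hp).eq_two_or_odd).resolve_left hp2
  have h6 := ((hC.prime q hq).eq_two_or_odd).resolve_left hq2
  omega

theorem Dat.cand {G : Type u} [Group G] [Finite G] {b n : ℕ} (h : Spec b n G) {N : Subgroup G} [N.Normal]
    {S : Subgroup (G ⧸ N)} (D : Dat n N S) : Cand n ↥S where
  sub x := by
    obtain ⟨g, hg⟩ := QuotientGroup.mk'_surjective N (x : G ⧸ N)
    have h1 : orderOf x ∣ orderOf g := by
      rw [← orderOf_coe, ← hg]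
      exact orderOf_map_dvd _ g
    exact (sg_le_of_dvd (orderOf_pos g).ne' h1).trans ((h _).1 ⟨g, rfl⟩).2.1
  coc C hC hC3 r hr s hs h1 h2 := by
    have hcardG : Nat.card G = Nat.card N * S.index * Nat.card S := by
      rw [mul_assoc, mul_comm S.index, S.card_mul_index, ← N.card_mul_index]
      rfl
    have key : ∀ v ∈ C, ¬ v ∣ Nat.card S → v ∣ Nat.card N * S.index := by
      intro v hv hvS
      have hp := hC.prime v hv
      have h3 : v ∣ Nat.card G := by
        obtain ⟨x, hx⟩ := (h v).2 ⟨hp.ne_zero, by rw [sg_prime hp]; exact hC.le v hv, fun he =>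
          absurd ((hp.even_iff).1 he) (ne_two_of_coc hC hC3 hv)⟩
        rw [← hx]
        exact orderOf_dvd_natCard x
      rw [hcardG] at h3
      exact (hp.dvd_mul.1 h3).resolve_right hvS
    exact D.coc C hC hC3 r hr s hs (key r hr h1) (key s hs h2)

end Cfsg.Agent.H334.Rec
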